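import Mathlib
import Cfsg.Agent.Lib.CoprimeAction.Glauberman
import Cfsg.Agent.Lib.CharDegreesTheory.InvariantConstituent
import Cfsg.Agent.Lib.Clifford.Basic
import Cfsg.Agent.Lib.Clifford.Extension
import Cfsg.Agent.Lib.Clifford.Eigen
import Cfsg.Agent.Lib.CharTheory.Ito

/-!
Invariant constituents above and below an invariant character, for a group of automorphisms of
order prime to the index only.
-/

set_option autoImplicit false
set_option linter.style.haveILetI false
set_option linter.unusedSectionVars false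

open scoped ComplexConjugate

namespace CfsgLib.Clifford

open Cfsg CfsgLib.CharTheory CfsgLib.CharDegreesTheory

universe u v w

/-- The action of a semidirect product given by two compatible actions. -/
@[reducible]
def semidirectAction {S K Ω : Type*} [Group S] [Group K] [MulAction S Ω] [MulAction K Ω]
    (φ : S →* MulAut K) (hcompat : ∀ (s : S) (k : K) (x : Ω), s • k • x = φ s k • s • x) :
    MulAction (K ⋊[φ] S) Ω where
  smul p x := p.left • p.right • x
  one_smul x := by
    show (1 : K ⋊[φ] S).left • (1 : K ⋊[φ] S).right • x = x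
    simp
  mul_smul p q x := by
    show (p * q).left • (p * q).right • x = p.left • p.right • q.left • q.right • x
    rw [SemidirectProduct.mul_left, SemidirectProduct.mul_right, mul_smul, mul_smul, ← hcompat]

/-- Glauberman's lemma for two compatible actions. -/
theorem exists_smul_fixed {S : Type u} {K : Type v} {Ω : Type w} [Group S] [Finite S] [Group K]
    [Finite K] [MulAction S Ω] [MulAction K Ω] (φ : S →* MulAut K)
    (hcompat : ∀ (s : S) (k : K) (x : Ω), s • k • x = φ s k • s • x)
    (hcop : (Nat.card S).Coprime (Nat.card K)) (hsolv : Group.IsSolvable S ∨ Group.IsSolvable K)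
    (ω : Ω) (horb : ∀ s : S, ∃ k : K, s • ω = k • ω) :
    ∃ k : K, ∀ s : S, s • k • ω = k • ω := by
  haveI : Finite (K ⋊[φ] S) := Finite.of_equiv _ SemidirectProduct.equivProd.symm
  letI := semidirectAction φ hcompat
  let iS : S →* K ⋊[φ] S := SemidirectProduct.inr
  let iK : K →* K ⋊[φ] S := SemidirectProduct.inl
  have hS : ∀ (s : S) (x : Ω), iS s • x = s • x := fun s x => by
    show (iS s).left • (iS s).right • x = s • x
    simp [iS]
  have hK : ∀ (k : K) (x : Ω), iK k • x = k • x := fun k x => by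
    show (iK k).left • (iK k).right • x = k • x
    simp [iK]
  have eS := MonoidHom.ofInjective (f := iS) SemidirectProduct.inr_injective
  have eK := MonoidHom.ofInjective (f := iK) SemidirectProduct.inl_injective
  obtain ⟨_, ⟨k, rfl⟩, hk⟩ := CfsgLib.CoprimeAction.exists_fixed (A := iS.range) (K := iK.range)
    (fun a _ => CfsgLib.CoprimeAction.mem_normalizer_of_conj_mem fun x hx => by
      rw [SemidirectProduct.range_inl_eq_ker_rightHom] at hx ⊢
      exact (inferInstance : (SemidirectProduct.rightHom (φ := φ)).ker.Normal).conj_mem x hx a)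
    (by rwa [← Nat.card_congr eS.toEquiv, ← Nat.card_congr eK.toEquiv])
    (hsolv.imp (fun (h : Group.IsSolvable S) => haveI := h
        Group.isSolvable_of_surjective (f := eS.toMonoidHom) eS.surjective)
      (fun (h : Group.IsSolvable K) => haveI := h
        Group.isSolvable_of_surjective (f := eK.toMonoidHom) eK.surjective))
    ω (by
      rintro _ ⟨s, rfl⟩
      obtain ⟨k, hk⟩ := horb s
      exact ⟨iK k, ⟨k, rfl⟩, by rw [hS, hK, hk]⟩)
  refine ⟨k, fun s => ?_⟩
  have := hk (iS s) ⟨s, rfl⟩
  rwa [hS, hK] at this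

/-- Two irreducible characters over one character of a normal subgroup with abelian quotient
differ by a linear character of the quotient. -/
theorem exists_linear_twist {G : Type u} [Group G] [Finite G] (M : Subgroup G) [M.Normal]
    (hab : commutator G ≤ M) {χ χ' : G → ℂ} (hχ : IsIrrCharacter G χ) (hχ' : IsIrrCharacter G χ')
    {θ : IrrCharacter M} (h : mult M.subtype χ (θ : M → ℂ) ≠ 0)
    (h' : mult M.subtype χ' (θ : M → ℂ) ≠ 0) :
    ∃ μ : G →* ℂˣ, (∀ m ∈ M, μ m = 1) ∧ χ' = linFun μ * χ := by
  classical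
  haveI := Fintype.ofFinite G
  haveI := Fintype.ofFinite M
  haveI := Fintype.ofFinite (IrrCharacter M)
  haveI : Finite (Abelianization (G ⧸ M)) := inferInstanceAs (Finite ((G ⧸ M) ⧸ commutator (G ⧸ M)))
  have hbot : commutator (G ⧸ M) = ⊥ := by
    rw [commutator_def, ← Subgroup.map_top_of_surjective (QuotientGroup.mk' M)
      (QuotientGroup.mk'_surjective M), ← Subgroup.map_commutator, ← commutator_def,
      Subgroup.map_eq_bot_iff, QuotientGroup.ker_mk']
    exact hab
  -- the restrictions to `M` are not orthogonal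
  have hM : classInner (fun m : M => χ m) (fun m : M => χ' m) ≠ 0 := by
    have e := res_eq_sum_mult M.subtype (IsIrrCharacter.isCharacter hχ)
    have e' := res_eq_sum_mult M.subtype (IsIrrCharacter.isCharacter hχ')
    simp only [Subgroup.coe_subtype] at e e'
    rw [e, e', classInner_sum_left]
    simp only [classInner_smul_left]
    have hone : ∀ β : IrrCharacter M, classInner (β : M → ℂ)
        (∑ γ : IrrCharacter M, (mult M.subtype χ' (γ : M → ℂ) : ℂ) • (γ : M → ℂ))
          = (mult M.subtype χ' (β : M → ℂ) : ℂ) := fun β => by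
      rw [classInner_conj_symm, classInner_sum_irr, map_natCast]
    simp only [hone, ← Nat.cast_mul, ← Nat.cast_sum, Nat.cast_ne_zero]
    exact fun h0 => (mul_ne_zero h h') (Finset.sum_eq_zero_iff.1 h0 θ (Finset.mem_univ _))
  by_contra hno
  push Not at hno
  have hz : ∀ l : (G ⧸ M) →* ℂˣ, classInner (linFun (l.comp (QuotientGroup.mk' M)) * χ) χ' = 0 :=
    fun l => classInner_eq_zero_of_ne (isIrrCharacter_linFun_mul _ hχ) hχ' fun e =>
      hno (l.comp (QuotientGroup.mk' M))
        (fun m hm => by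
          rw [MonoidHom.comp_apply, QuotientGroup.mk'_apply, (QuotientGroup.eq_one_iff m).2 hm,
            map_one]) e.symm
  refine hM ?_
  have key : ∑ l : (G ⧸ M) →* ℂˣ, classInner (linFun (l.comp (QuotientGroup.mk' M)) * χ) χ' = 0 :=
    Finset.sum_eq_zero fun l _ => hz l
  simp only [classInner, ← Finset.mul_sum, Pi.mul_apply, linFun_apply, MonoidHom.comp_apply] at key
  rw [Finset.sum_comm] at key
  simp only [mul_assoc, ← Finset.sum_mul] at key
  have hsum : ∀ x : G ⧸ M, ∑ l : (G ⧸ M) →* ℂˣ, (l x : ℂ)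
      = if x = 1 then (Nat.card (Abelianization (G ⧸ M)) : ℂ) else 0 := fun x => by
    rw [show (∑ l : (G ⧸ M) →* ℂˣ, (l x : ℂ)) = _ from sum_homUnits_apply' x]
    simp [hbot]
  simp only [hsum, QuotientGroup.mk'_apply, QuotientGroup.eq_one_iff, ite_mul, zero_mul] at key
  rw [← Finset.sum_filter, Finset.sum_subtype (p := (· ∈ M)) _ (fun x => by simp),
    ← Finset.mul_sum] at key
  simp only [mul_eq_zero, inv_eq_zero, Nat.cast_eq_zero, Nat.card_pos.ne', false_or] at key
  rw [classInner, show (∑ g : M, χ g * conj (χ' g)) = 0 from key, mul_zero]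

/-- Linear characters of a quotient, as characters of the group. -/
def linOver {G : Type u} [Group G] (M : Subgroup G) : Subgroup (G →* ℂˣ) where
  carrier := {μ | ∀ m ∈ M, μ m = 1}
  one_mem' := fun m _ => rfl
  mul_mem' := fun {a b} ha hb m hm => by rw [MonoidHom.mul_apply, ha m hm, hb m hm, one_mul]
  inv_mem' := fun {a} ha m hm => by rw [MonoidHom.inv_apply, ha m hm, inv_one]

theorem finite_linOver {G : Type u} [Group G] [Finite G] (M : Subgroup G) : Finite (linOver M) := by
  haveI : Finite (G →* ℂˣ) := by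
    have : Function.Injective (fun μ : G →* ℂˣ => (⟨linFun μ, isIrrCharacter_linear μ⟩ :
        IrrCharacter G)) := fun a b h => linFun_injective (congrArg Subtype.val h)
    exact Finite.of_injective _ this
  infer_instance

theorem card_linOver_dvd {G : Type u} [Group G] [Finite G] (M : Subgroup G) [M.Normal] :
    Nat.card (linOver M) ∣ M.index := by
  classical
  haveI : Finite (Abelianization (G ⧸ M)) := inferInstanceAs (Finite ((G ⧸ M) ⧸ commutator (G ⧸ M)))
  let e : linOver M ≃ ((G ⧸ M) →* ℂˣ) :=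
    { toFun := fun μ => QuotientGroup.lift M μ.1 fun m hm => μ.2 m hm
      invFun := fun l => ⟨l.comp (QuotientGroup.mk' M), fun m hm => by
        rw [MonoidHom.comp_apply, QuotientGroup.mk'_apply, (QuotientGroup.eq_one_iff m).2 hm,
          map_one]⟩
      left_inv := fun μ => Subtype.ext (MonoidHom.ext fun g => rfl)
      right_inv := fun l => MonoidHom.ext fun x => QuotientGroup.induction_on x fun g => rfl }
  haveI := finite_linOver M
  haveI : Finite ((G ⧸ M) →* ℂˣ) := Finite.of_equiv _ e
  have h1 : (∑ l : (G ⧸ M) →* ℂˣ, (l (1 : G ⧸ M) : ℂ))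
      = (Nat.card (Abelianization (G ⧸ M)) : ℂ) :=
    (sum_homUnits_apply' (B := G ⧸ M) 1).trans (if_pos (one_mem _))
  simp only [map_one, Units.val_one, Finset.sum_const, Finset.card_univ, nsmul_eq_mul, mul_one,
    Nat.cast_inj] at h1
  rw [Nat.card_congr e, Nat.card_eq_fintype_card, h1, Subgroup.index_eq_card]
  exact Subgroup.card_quotient_dvd_card _

/-- The action on linear characters over a quotient by an invariant subgroup. -/
def linOverAction {S : Type v} {G : Type u} [Group S] [Group G] (φ : S →* MulAut G)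
    (M : Subgroup G) (hM : ∀ s, ∀ m ∈ M, φ s m ∈ M) : S →* MulAut (linOver M) where
  toFun s :=
    { toFun := fun μ => ⟨μ.1.comp (φ s⁻¹).toMonoidHom, fun m hm => μ.2 _ (hM _ m hm)⟩
      invFun := fun μ => ⟨μ.1.comp (φ s).toMonoidHom, fun m hm => μ.2 _ (hM _ m hm)⟩
      left_inv := fun μ => Subtype.ext (MonoidHom.ext fun g => by simp)
      right_inv := fun μ => Subtype.ext (MonoidHom.ext fun g => by simp)
      map_mul' := fun a b => rfl }
  map_one' := MulEquiv.ext fun μ => Subtype.ext (MonoidHom.ext fun g => by simp)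
  map_mul' s t := MulEquiv.ext fun μ => Subtype.ext (MonoidHom.ext fun g => by simp [map_mul])

/-- Multiplication of irreducible characters by linear characters. -/
@[reducible]
def twistAction {G : Type u} [Group G] [Finite G] (M : Subgroup G) :
    MulAction (linOver M) (IrrCharacter G) where
  smul μ χ := ⟨linFun μ.1 * (χ : G → ℂ), isIrrCharacter_linFun_mul μ.1 χ.2⟩
  one_smul χ := Subtype.ext (funext fun g => by
    show linFun (1 : G →* ℂˣ) g * (χ : G → ℂ) g = _
    simp [linFun_apply])
  mul_smul μ ν χ := Subtype.ext (funext fun g => by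
    show linFun (μ.1 * ν.1) g * (χ : G → ℂ) g = linFun μ.1 g * (linFun ν.1 g * (χ : G → ℂ) g)
    simp [linFun_apply, mul_assoc])

/-- Multiplicities seen in `M` are those seen in `M.subgroupOf G`. -/
theorem mult_irrComp_equiv {A B G : Type*} [Group A] [Group B] [Group G] [Finite A] [Finite B]
    (ι : A →* G) (ι' : B →* G) (e : A ≃* B) (h : ∀ a, ι' (e a) = ι a) (χ : G → ℂ)
    (θ : IrrCharacter B) :
    mult ι χ ((irrComp e θ : IrrCharacter A) : A → ℂ) = mult ι' χ (θ : B → ℂ) :=
  mult_comp_equiv ι ι' (MulEquiv.refl G) e (fun a => h a) χ (θ : B → ℂ)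

/-- The abelian step: an invariant character of a normal subgroup with abelian quotient has an
invariant constituent above. -/
theorem exists_invariant_above_abelian {S : Type v} [Group S] [Finite S] {G : Type u} [Group G]
    [Finite G] (φ : S →* MulAut G) (M : Subgroup G) [M.Normal] (hab : commutator G ≤ M)
    (hM : ∀ s, ∀ m ∈ M, φ s m ∈ M) (hcop : M.index.Coprime (Nat.card S)) (θ : IrrCharacter M)
    (hθ : IsInvariant (restrictAction φ M hM) (θ : M → ℂ)) :
    ∃ χ : IrrCharacter G, IsInvariant φ (χ : G → ℂ) ∧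
      mult M.subtype (χ : G → ℂ) (θ : M → ℂ) ≠ 0 := by
  obtain ⟨χ₀, hχ₀⟩ := exists_constituent M θ
  letI := irrAction φ
  letI := twistAction M
  haveI := finite_linOver M
  have hover : ∀ s : S, mult M.subtype ((s • χ₀ : IrrCharacter G) : G → ℂ) (θ : M → ℂ) ≠ 0 := by
    intro s
    have e := mult_comp_equiv M.subtype M.subtype (φ s⁻¹) (restrictAction φ M hM s⁻¹)
      (fun m => rfl) (χ₀ : G → ℂ) (θ : M → ℂ)
    rw [show (fun m => (θ : M → ℂ) (restrictAction φ M hM s⁻¹ m)) = (θ : M → ℂ) from
      funext fun m => hθ s⁻¹ m] at e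
    show mult M.subtype (fun g => (χ₀ : G → ℂ) (φ s⁻¹ g)) (θ : M → ℂ) ≠ 0
    rw [e]
    exact hχ₀
  obtain ⟨k, hk⟩ := exists_smul_fixed (Ω := IrrCharacter G) (linOverAction φ M hM)
    (fun s μ χ => rfl) ((hcop.coprime_dvd_left (card_linOver_dvd M)).symm)
    (Or.inr (Group.isSolvable_of_comm fun a b => mul_comm a b)) χ₀
    (fun s => by
      obtain ⟨μ, hμ, e⟩ := exists_linear_twist M hab χ₀.2 (s • χ₀ : IrrCharacter G).2 hχ₀ (hover s)
      exact ⟨⟨μ, hμ⟩, Subtype.ext e⟩)
  refine ⟨k • χ₀, (mem_fixedPoints_irrAction φ _).1 hk, ?_⟩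
  have e : (fun m : M => ((k • χ₀ : IrrCharacter G) : G → ℂ) m) = fun m : M => (χ₀ : G → ℂ) m := by
    funext m
    show linFun k.1 (m : G) * (χ₀ : G → ℂ) m = _
    rw [linFun_apply, k.2 m m.2, Units.val_one, one_mul]
  simp only [mult, Subgroup.coe_subtype] at hχ₀ ⊢
  rw [e]
  exact hχ₀

theorem map_derivedSeries_mem {G : Type u} [Group G] (e : MulAut G) (k : ℕ) {x : G}
    (hx : x ∈ derivedSeries G k) : e x ∈ derivedSeries G k :=
  map_derivedSeries_le_derivedSeries e.toMonoidHom k ⟨x, hx, rfl⟩

theorem exists_invariant_above_aux {S : Type v} [Group S] [Finite S] {G : Type u} [Group G]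
    [Finite G] (φ : S →* MulAut G) (k : ℕ) : ∀ (N : Subgroup G), N.Normal →
    derivedSeries G k ≤ N → ∀ (hN : ∀ s, ∀ n ∈ N, φ s n ∈ N), N.index.Coprime (Nat.card S) →
    ∀ (θ : IrrCharacter N), IsInvariant (restrictAction φ N hN) (θ : N → ℂ) →
      ∃ χ : IrrCharacter G, IsInvariant φ (χ : G → ℂ) ∧
        mult N.subtype (χ : G → ℂ) (θ : N → ℂ) ≠ 0 := by
  induction k with
  | zero =>
    intro N _ hle hN _ θ hθ
    rw [derivedSeries_zero, top_le_iff] at hle
    subst hle
    refine ⟨irrComp Subgroup.topEquiv.symm θ, fun s g => hθ s (Subgroup.topEquiv.symm g), ?_⟩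
    rw [← mult_irrComp_equiv (⊤ : Subgroup G).subtype (⊤ : Subgroup G).subtype
      (MulEquiv.refl _) (fun a => rfl)]
    have e := mult_comp_equiv (⊤ : Subgroup G).subtype (MonoidHom.id (⊤ : Subgroup G))
      Subgroup.topEquiv.symm (MulEquiv.refl _) (fun c => rfl) (θ : (⊤ : Subgroup G) → ℂ)
      (θ : (⊤ : Subgroup G) → ℂ)
    haveI := Fintype.ofFinite (⊤ : Subgroup G)
    have h1 := classInner_eq_mult (MonoidHom.id (⊤ : Subgroup G))
      (IsIrrCharacter.isCharacter θ.2) θ
    simp only [MonoidHom.id_apply] at h1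
    rw [classInner_self_of_isIrr θ.2] at h1
    refine fun h0 => one_ne_zero (α := ℂ) (h1.trans ?_)
    rw [← e]
    exact_mod_cast h0
  | succ k ih =>
    intro N hNn hle hN hcop θ hθ
    haveI := hNn
    classical
    set M : Subgroup G := derivedSeries G k ⊔ N with hMdef
    have hM : ∀ s, ∀ m ∈ M, φ s m ∈ M := fun s m hm => by
      have : M ≤ M.comap (φ s).toMonoidHom := sup_le
        (fun x hx => (le_sup_left : derivedSeries G k ≤ M) (map_derivedSeries_mem (φ s) k hx))
        (fun x hx => (le_sup_right : N ≤ M) (hN s x hx))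
      exact this hm
    haveI : (derivedSeries G k).Normal := derivedSeries_normal G k
    haveI : M.Normal := Subgroup.sup_normal _ _
    have hNM : N ≤ M := le_sup_right
    have hcomm : ⁅M, M⁆ ≤ N := by
      rw [← QuotientGroup.ker_mk' N, ← Subgroup.map_eq_bot_iff, Subgroup.map_commutator,
        hMdef, Subgroup.map_sup, show N.map (QuotientGroup.mk' N) = ⊥ by
          rw [Subgroup.map_eq_bot_iff, QuotientGroup.ker_mk'],
        sup_bot_eq, ← Subgroup.map_commutator, Subgroup.map_eq_bot_iff, QuotientGroup.ker_mk',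
        ← derivedSeries_succ]
      exact hle
    have hab : commutator M ≤ N.subgroupOf M := by
      intro x hx
      have : (x : G) ∈ (commutator M).map M.subtype := ⟨x, hx, rfl⟩
      rw [Subgroup.map_subtype_commutator] at this
      exact hcomm this
    let eN := Subgroup.subgroupOfEquivOfLe hNM
    obtain ⟨η, hη, hηθ⟩ := exists_invariant_above_abelian (restrictAction φ M hM) (N.subgroupOf M)
      hab (fun s m hm => hN s m.1 hm)
      (hcop.coprime_dvd_left (Subgroup.relIndex_dvd_index_of_normal N M)) (irrComp eN θ)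
      (fun s n => hθ s (eN n))
    obtain ⟨χ, hχ, hχη⟩ := ih M inferInstance le_sup_left hM
      (hcop.coprime_dvd_left (Subgroup.index_dvd_of_le hNM)) η hη
    refine ⟨χ, hχ, ?_⟩
    haveI := Fintype.ofFinite (IrrCharacter M)
    rw [← mult_irrComp_equiv (M.subtype.comp (N.subgroupOf M).subtype) N.subtype eN
      (fun a => rfl), mult_comp _ _ (IsIrrCharacter.isCharacter χ.2)]
    exact fun h0 => (mul_ne_zero hχη hηθ) (Finset.sum_eq_zero_iff.1 h0 η (Finset.mem_univ _))

/-- An invariant character has an invariant constituent above when the automorphism group has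
order prime to the index and the quotient is solvable. -/
theorem exists_invariant_above {S : Type v} [Group S] [Finite S] {G : Type u} [Group G]
    [Finite G] (φ : S →* MulAut G) (N : Subgroup G) [N.Normal] (hsolv : Group.IsSolvable (G ⧸ N))
    (hN : ∀ s, ∀ n ∈ N, φ s n ∈ N) (hcop : N.index.Coprime (Nat.card S)) (θ : IrrCharacter N)
    (hθ : IsInvariant (restrictAction φ N hN) (θ : N → ℂ)) :
    ∃ χ : IrrCharacter G, IsInvariant φ (χ : G → ℂ) ∧
      mult N.subtype (χ : G → ℂ) (θ : N → ℂ) ≠ 0 := by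
  obtain ⟨k, hk⟩ := hsolv.solvable
  refine exists_invariant_above_aux φ k N inferInstance ?_ hN hcop θ hθ
  rw [← map_derivedSeries_eq (QuotientGroup.mk'_surjective N), Subgroup.map_eq_bot_iff,
    QuotientGroup.ker_mk'] at hk
  exact hk

/-- An invariant character has an invariant constituent below. -/
theorem exists_invariant_below {S : Type v} [Group S] [Finite S] {G : Type u} [Group G]
    [Finite G] (φ : S →* MulAut G) (N : Subgroup G) [N.Normal]
    (hsolv : Group.IsSolvable S ∨ Group.IsSolvable (G ⧸ N))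
    (hN : ∀ s, ∀ n ∈ N, φ s n ∈ N) (hcop : N.index.Coprime (Nat.card S)) (χ : IrrCharacter G)
    (hχ : IsInvariant φ (χ : G → ℂ)) :
    ∃ θ : IrrCharacter N, IsInvariant (restrictAction φ N hN) (θ : N → ℂ) ∧
      mult N.subtype (χ : G → ℂ) (θ : N → ℂ) ≠ 0 := by
  classical
  haveI := Fintype.ofFinite G
  haveI := Fintype.ofFinite N
  obtain ⟨θ₀, hθ₀⟩ := CfsgLib.CharTheory.exists_constituent N (IsIrrCharacter.isCharacter χ.2)
    (apply_one_ne_zero_of_isIrr χ.2)
  have hmult : ∀ θ : IrrCharacter N, mult N.subtype (χ : G → ℂ) (θ : N → ℂ) ≠ 0 ↔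
      classInner (fun n : N => (χ : G → ℂ) n) (θ : N → ℂ) ≠ 0 := fun θ => by
    rw [show classInner (fun n : N => (χ : G → ℂ) n) (θ : N → ℂ) = _ from
      classInner_eq_mult N.subtype (IsIrrCharacter.isCharacter χ.2) θ, Nat.cast_ne_zero]
  letI actN := irrAction (restrictAction φ N hN)
  letI actG := irrAction (MulAut.conjNormal : G →* MulAut N)
  have hNfix : N ≤ (MulAction.toPermHom G (IrrCharacter N)).ker := fun x hx =>
    MonoidHom.mem_ker.2 (Equiv.ext fun θ => Subtype.ext (funext fun n => by
      show (θ : N → ℂ) (MulAut.conjNormal x⁻¹ n) = (θ : N → ℂ) n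
      rw [← IsIrrCharacter.isClassFunction θ.2 n ⟨x⁻¹, inv_mem hx⟩]
      exact congrArg _ (Subtype.ext (MulAut.conjNormal_apply _ _))))
  letI actQ : MulAction (G ⧸ N) (IrrCharacter N) :=
    MulAction.compHom _ (QuotientGroup.lift N (MulAction.toPermHom G (IrrCharacter N)) hNfix)
  have hmap : ∀ s : S, N.map (φ s).toMonoidHom = N := fun s => le_antisymm
    (Subgroup.map_le_iff_le_comap.2 fun n hn => hN s n hn)
    (fun n hn => ⟨φ s⁻¹ n, hN _ n hn, by simp⟩)
  let φQ : S →* MulAut (G ⧸ N) :=
    { toFun := fun s => QuotientGroup.congr N N (φ s) (hmap s)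
      map_one' := MulEquiv.ext fun x => QuotientGroup.induction_on x fun g => by simp
      map_mul' := fun s t => MulEquiv.ext fun x => QuotientGroup.induction_on x fun g => by
        simp only [map_mul]; rfl }
  obtain ⟨k, hk⟩ := exists_smul_fixed φQ
    (fun s q θ => QuotientGroup.induction_on q fun x => by
      refine Subtype.ext (funext fun n => ?_)
      show (θ : N → ℂ) (MulAut.conjNormal x⁻¹ (restrictAction φ N hN s⁻¹ n))
        = (θ : N → ℂ) (restrictAction φ N hN s⁻¹ (MulAut.conjNormal (φ s x)⁻¹ n))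
      refine congrArg _ (Subtype.ext ?_)
      show x⁻¹ * φ s⁻¹ (n : G) * x⁻¹⁻¹ = φ s⁻¹ ((φ s x)⁻¹ * (n : G) * (φ s x)⁻¹⁻¹)
      simp)
    (by rw [← Subgroup.index_eq_card]; exact hcop.symm) hsolv θ₀
    (fun s => by
      have h2 : mult N.subtype (χ : G → ℂ) ((s • θ₀ : IrrCharacter N) : N → ℂ) ≠ 0 := by
        show mult N.subtype (χ : G → ℂ) (fun n => (θ₀ : N → ℂ) (restrictAction φ N hN s⁻¹ n)) ≠ 0
        rw [mult_comp_invariant N.subtype (φ s⁻¹) (restrictAction φ N hN s⁻¹) (fun n => rfl) _ _
          (fun g => hχ s⁻¹ g)]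
        exact (hmult θ₀).2 hθ₀
      obtain ⟨g, hg⟩ := exists_conj_of_constituents N χ.2 θ₀.2 (s • θ₀ : IrrCharacter N).2 hθ₀
        ((hmult _).1 h2)
      refine ⟨((g⁻¹ : G) : G ⧸ N), Subtype.ext (hg.trans (funext fun n => ?_))⟩
      show _ = (θ₀ : N → ℂ) (MulAut.conjNormal g⁻¹⁻¹ n)
      rw [inv_inv]
      rfl)
  refine ⟨k • θ₀, (mem_fixedPoints_irrAction _ _).1 hk, ?_⟩
  induction k using QuotientGroup.induction_on with
  | H x =>
    show mult N.subtype (χ : G → ℂ) (fun n => (θ₀ : N → ℂ) (MulAut.conjNormal x⁻¹ n)) ≠ 0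
    rw [mult_comp_invariant N.subtype (MulAut.conj x⁻¹) (MulAut.conjNormal x⁻¹) (fun n => rfl) _ _
      (fun g => IsIrrCharacter.isClassFunction χ.2 g x⁻¹)]
    exact (hmult θ₀).2 hθ₀

end CfsgLib.Clifford
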