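import Mathlib
import Cfsg.Agent.Lib.Clifford.CoprimeInvariant
import Cfsg.Agent.Lib.CharDegreesTheory.GlaubermanSubgroup
import Cfsg.Agent.Lib.RealChar.Extension
import Cfsg.Agent.Lib.Jordan.RelGlauberman
import Cfsg.Agent.Lib.CharTheory.Inflation

/-!
Invariant constituents above an invariant character of a normal subgroup, for a solvable operator
group of order prime to the index, by passing to a finite central extension of the section.
-/

set_option autoImplicit false
set_option linter.style.haveILetI false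
set_option linter.unusedSectionVars false

namespace CfsgLib.Clifford

open Cfsg CfsgLib.CharTheory CfsgLib.CharDegreesTheory CfsgLib.RealChar

universe u v

/-- The action induced on the quotient by an invariant normal subgroup. -/
def quotAction {S : Type v} {G : Type u} [Group S] [Group G] (φ : S →* MulAut G) (N : Subgroup G)
    [N.Normal] (hN : ∀ s, ∀ n ∈ N, φ s n ∈ N) : S →* MulAut (G ⧸ N) where
  toFun s := QuotientGroup.congr N N (φ s) (le_antisymm
    (Subgroup.map_le_iff_le_comap.2 fun n hn => hN s n hn)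
    (fun n hn => ⟨φ s⁻¹ n, hN _ n hn, by simp⟩))
  map_one' := MulEquiv.ext fun x => QuotientGroup.induction_on x fun g => by simp
  map_mul' s t := MulEquiv.ext fun x => QuotientGroup.induction_on x fun g => by
    simp only [map_mul]; rfl

@[simp]
theorem quotAction_mk {S : Type v} {G : Type u} [Group S] [Group G] (φ : S →* MulAut G)
    (N : Subgroup G) [N.Normal] (hN : ∀ s, ∀ n ∈ N, φ s n ∈ N) (s : S) (g : G) :
    quotAction φ N hN s (g : G ⧸ N) = ((φ s g : G) : G ⧸ N) := rfl

/-- A character over a linear character of a central subgroup is multiplied by it under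
translation. -/
theorem apply_central_mul {H : Type u} [Group H] [Finite H] (A : Subgroup H)
    (hA : A ≤ Subgroup.center H) (l : A →* ℂˣ) {β : H → ℂ} (hβ : IsIrrCharacter H β)
    (hm : mult A.subtype β (fun a => (l a : ℂ)) ≠ 0) (a : A) (h : H) :
    β ((a : H) * h) = (l a : ℂ) * β h := by
  haveI := Fintype.ofFinite A
  haveI := Fintype.ofFinite H
  haveI : A.Normal := ⟨fun x hx g => by
    rw [Subgroup.mem_center_iff.1 (hA hx) g, mul_inv_cancel_right]; exact hx⟩
  have hne := apply_one_ne_zero_of_isIrr hβ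
  have hres := res_eq_of_invariant A hβ (isIrrCharacter_linear l) (fun g => funext fun x => by
    rw [conjChar_apply]
    exact congrArg (fun y : A => (l y : ℂ)) (Subtype.ext (show g * (x : H) * g⁻¹ = (x : H) by
      rw [Subgroup.mem_center_iff.1 (hA x.2) g, mul_inv_cancel_right])))
    (by
      rw [show classInner (fun x : A => β x) (fun x : A => (l x : ℂ)) = _ from
        classInner_eq_mult A.subtype (IsIrrCharacter.isCharacter hβ) ⟨_, isIrrCharacter_linear l⟩,
        Nat.cast_ne_zero]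
      exact hm)
  obtain ⟨n, ρ, hρ, rfl⟩ := hβ
  haveI := hρ
  obtain ⟨c, hc⟩ := exists_smul_of_commute ρ (ρ a) (fun g => by
    rw [← Module.End.mul_eq_comp, ← Module.End.mul_eq_comp, ← map_mul, ← map_mul,
      (Subgroup.mem_center_iff.1 (hA a.2) g)])
  have hmul : ∀ g, ρ.character ((a : H) * g) = c * ρ.character g := fun g => by
    simp only [Representation.character, map_mul, hc, smul_mul_assoc, map_smul, smul_eq_mul]
    rfl
  have h1 := congrFun hres 1
  have ha := congrFun hres a
  simp only [Pi.smul_apply, smul_eq_mul, map_one, Units.val_one, mul_one, Subgroup.coe_one] at h1 ha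
  have hc1 : c = (l a : ℂ) := by
    have e := hmul 1
    rw [mul_one, ha, ← h1] at e
    exact mul_left_cancel₀ hne (by rw [e, mul_comm])
  rw [hmul, hc1]

/-- The invariant character of `G` obtained from a finite central extension `K` of `G` on which
an invariant character extending `θ` is given. -/
theorem exists_invariant_above_of_cover {S : Type v} [Group S] [Finite S]
    (hS : Group.IsSolvable S) {G : Type u} [Group G] [Finite G] {K : Type u} [Group K] [Finite K]
    {N : Type u} [Group N] [Finite N] (φ : S →* MulAut G) (φK : S →* MulAut K) (π : K →* G)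
    (hπs : Function.Surjective π) (hπ : ∀ s x, π (φK s x) = φ s (π x)) (ι : N →* K)
    [ι.range.Normal] (hinj : Function.Injective (π.comp ι))
    (hιs : ∀ s, ∀ x ∈ ι.range, φK s x ∈ ι.range) (hcent : π.ker ≤ Subgroup.center K)
    {Θ : K → ℂ} (hΘ : IsIrrCharacter K Θ) (hΘs : IsInvariant φK Θ) (θ : IrrCharacter N)
    (hθ : ∀ n, Θ (ι n) = (θ : N → ℂ) n) (lam : π.ker →* ℂˣ)
    (hlam : ∀ (a : π.ker) (x : K), Θ ((a : K) * x) = (lam a : ℂ) * Θ x)
    (hcop : (Nat.card (K ⧸ ι.range)).Coprime (Nat.card S)) :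
    ∃ χ : IrrCharacter G, IsInvariant φ (χ : G → ℂ) ∧
      mult (π.comp ι) (χ : G → ℂ) (θ : N → ℂ) ≠ 0 := by
  classical
  haveI := Fintype.ofFinite N
  set R := ι.range with hR
  haveI := Fintype.ofFinite R
  set q := QuotientGroup.mk' R
  have hιinj : Function.Injective ι := fun a b h => hinj (congrArg π h)
  -- the central subgroup of the quotient
  set A := π.ker.map q with hA
  have hAc : A ≤ Subgroup.center (K ⧸ R) := by
    rintro _ ⟨a, ha, rfl⟩
    rw [Subgroup.mem_center_iff]
    intro h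
    induction h using QuotientGroup.induction_on with
    | H x =>
      show ((x : K ⧸ R)) * (a : K ⧸ R) = (a : K ⧸ R) * (x : K ⧸ R)
      rw [← QuotientGroup.mk_mul, ← QuotientGroup.mk_mul, Subgroup.mem_center_iff.1 (hcent ha) x]
  haveI : A.Normal := ⟨fun x hx g => by
    rw [Subgroup.mem_center_iff.1 (hAc hx) g, mul_inv_cancel_right]; exact hx⟩
  let f : π.ker →* A := q.subgroupMap π.ker
  have hf : Function.Bijective f := by
    refine ⟨(injective_iff_map_eq_one f).2 fun a ha => ?_, q.subgroupMap_surjective _⟩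
    obtain ⟨n, hn⟩ := (QuotientGroup.eq_one_iff (a : K)).1 (congrArg Subtype.val ha)
    refine Subtype.ext ?_
    have : n = 1 := hinj (by
      show π (ι n) = π (ι 1)
      rw [hn, map_one, map_one]
      exact a.2)
    rw [← hn, this, map_one]
    rfl
  let e : π.ker ≃* A := MulEquiv.ofBijective f hf
  let l : A →* ℂˣ := (lam.comp e.symm.toMonoidHom)⁻¹
  let φH := quotAction φK R hιs
  have hker : ∀ s, ∀ a ∈ π.ker, φK s a ∈ π.ker := fun s a ha => by
    rw [MonoidHom.mem_ker, hπ, MonoidHom.mem_ker.1 ha, map_one]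
  have hAs : ∀ s, ∀ y ∈ A, φH s y ∈ A := by
    rintro s _ ⟨a, ha, rfl⟩
    exact ⟨φK s a, hker s a ha, rfl⟩
  have hΘ1 := apply_one_ne_zero_of_isIrr hΘ
  have hlams : ∀ (s : S) (a : π.ker), lam ⟨φK s a, hker s a a.2⟩ = lam a := fun s a => by
    have h1 := hlam ⟨φK s a, hker s a a.2⟩ 1
    have h2 := hlam a 1
    rw [mul_one] at h1 h2
    rw [hΘs s a] at h1
    exact Units.ext (mul_right_cancel₀ hΘ1 (h1.symm.trans h2))
  obtain ⟨β, hβ, hβm⟩ := exists_invariant_constituent hS φH hcop A hAs
    ⟨_, isIrrCharacter_linear l⟩ (fun s y => by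
      obtain ⟨a, rfl⟩ := e.surjective y
      have he : restrictAction φH A hAs s (e a) = e ⟨φK s a, hker s a a.2⟩ := Subtype.ext rfl
      show (l (restrictAction φH A hAs s (e a)) : ℂ) = (l (e a) : ℂ)
      simp only [he, l, MonoidHom.inv_apply, MonoidHom.comp_apply, MulEquiv.toMonoidHom_eq_coe,
        MonoidHom.coe_coe, MulEquiv.symm_apply_apply, hlams])
  -- the twisted character is trivial on the kernel
  haveI := Fintype.ofFinite K
  have hresirr : IsIrrCharacter R (fun r : R => Θ r) := by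
    let er : N ≃* R := MonoidHom.ofInjective hιinj
    have : (fun r : R => Θ r) = fun r => (θ : N → ℂ) (er.symm r) := funext fun r => by
      obtain ⟨n, rfl⟩ := er.surjective r
      rw [MulEquiv.symm_apply_apply, ← hθ]
      rfl
    rw [this]
    exact CfsgLib.CharDegreesTheory.isIrrCharacter_comp_equiv θ.2 er.symm
  have hirr := CfsgLib.Jordan.isIrrCharacter_twist R hΘ hresirr β
  have hinvk : ∀ a ∈ π.ker, ∀ x : K,
      (β : K ⧸ R → ℂ) ((a * x : K) : K ⧸ R) * Θ (a * x) = (β : K ⧸ R → ℂ) (x : K ⧸ R) * Θ x := by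
    intro a ha x
    rw [QuotientGroup.mk_mul, hlam ⟨a, ha⟩ x,
      show ((a : K) : K ⧸ R) = ((e ⟨a, ha⟩ : A) : K ⧸ R) from rfl,
      apply_central_mul A hAc l β.2 hβm]
    simp only [l, MonoidHom.inv_apply, MonoidHom.comp_apply, MulEquiv.toMonoidHom_eq_coe,
      MonoidHom.coe_coe, MulEquiv.symm_apply_apply, Units.val_inv_eq_inv_val]
    field_simp
  obtain ⟨χ', hχ', hval⟩ := exists_descend hirr π.ker (fun a ha => by
    simpa using hinvk a ha 1)
  let eG : K ⧸ π.ker ≃* G := QuotientGroup.quotientKerEquivOfSurjective π hπs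
  let χ : IrrCharacter G := irrComp eG.symm ⟨χ', hχ'⟩
  have hχ : ∀ x : K, (χ : G → ℂ) (π x) = (β : K ⧸ R → ℂ) (x : K ⧸ R) * Θ x := fun x => by
    refine Eq.trans ?_ (hval x).symm
    show χ' (eG.symm (π x)) = χ' (x : K ⧸ π.ker)
    rw [show eG.symm (π x) = (x : K ⧸ π.ker) from eG.symm_apply_eq.2 rfl]
  refine ⟨χ, fun s g => ?_, ?_⟩
  · obtain ⟨x, rfl⟩ := hπs g
    rw [← hπ, hχ, hχ, hΘs s x]
    exact congrArg (· * Θ x) (hβ s (x : K ⧸ R))
  · intro h0
    have e1 := classInner_eq_mult (π.comp ι) (IsIrrCharacter.isCharacter χ.2) θ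
    rw [h0, Nat.cast_zero] at e1
    have hfun : (fun n : N => (χ : G → ℂ) ((π.comp ι) n))
        = (β : K ⧸ R → ℂ) 1 • (θ : N → ℂ) := by
      funext n
      rw [MonoidHom.comp_apply, hχ, hθ, (QuotientGroup.eq_one_iff (N := R) (ι n)).2 ⟨n, rfl⟩]
      rfl
    rw [hfun, classInner_smul_left, classInner_self_of_isIrr θ.2, mul_one] at e1
    exact apply_one_ne_zero_of_isIrr β.2 e1

/-- An invariant character of a normal subgroup has an invariant constituent above when the
operator group is solvable and of order prime to the index. -/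
theorem exists_invariant_above_of_solvable_operator {Γ : Type u} [Group Γ] [Finite Γ]
    (G S N : Subgroup Γ) [hG : G.Normal] [hN : N.Normal] (hNG : N ≤ G) (hS : Group.IsSolvable S)
    (hcop : (N.relIndex G).Coprime (Nat.card S)) (θ : IrrCharacter N)
    (hinv : ∀ (x : Γ) (n : N), (θ : N → ℂ) (MulAut.conjNormal x n) = (θ : N → ℂ) n) :
    ∃ χ : IrrCharacter G, IsInvariant (conjRes G S fun s _ g hg => hG.conj_mem g hg s)
      (χ : G → ℂ) ∧ mult (Subgroup.inclusion hNG) (χ : G → ℂ) (θ : N → ℂ) ≠ 0 := by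
  classical
  obtain ⟨θv, d, ρ, hρ, hρθ⟩ := θ
  subst hρθ
  haveI := hρ
  set N' := N.subgroupOf G with hN'
  set m := N.relIndex G with hm
  have hm0 : m ≠ 0 := Subgroup.index_ne_zero_of_finite
  let e : N' ≃* N := Subgroup.subgroupOfEquivOfLe hNG
  let ρ' : Representation ℂ N' (Fin d → ℂ) := ρ.comp e.toMonoidHom
  haveI : ρ'.IsIrreducible := by
    let o : Subrepresentation ρ' ≃o Subrepresentation ρ :=
      { toFun := fun W => ⟨W.toSubmodule, fun n => by
          obtain ⟨k, rfl⟩ := e.surjective n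
          exact W.apply_mem_toSubmodule k⟩
        invFun := fun W => ⟨W.toSubmodule, fun n => W.apply_mem_toSubmodule (e n)⟩
        left_inv := fun W => rfl
        right_inv := fun W => rfl
        map_rel_iff' := Iff.rfl }
    exact o.isSimpleOrder_iff.mpr inferInstance
  have hcoe : ∀ (g : G) (n : N'), e (MulAut.conjNormal g n) = MulAut.conjNormal (g : Γ) (e n) :=
    fun g n => Subtype.ext (by
      show ((g * (n : G) * g⁻¹ : G) : Γ) = (g : Γ) * _ * (g : Γ)⁻¹
      rfl)
  obtain ⟨ψ₀, hψN, hψs⟩ := exists_hom_pow_index (ρ := ρ')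
    (fun g n => by
      show ρ.character (e (MulAut.conjNormal g n)) = ρ.character (e n)
      rw [hcoe]
      exact hinv g (e n))
    N' le_rfl ρ' (fun n => rfl)
  -- the intertwiners over `G`
  set F := interGroup N ρ
  set E : Subgroup F := G.comap (interFst N ρ) with hE
  haveI : E.Normal := hG.comap _
  let toE : E →* interGroup N' ρ' :=
    { toFun := fun x => ⟨((⟨interFst N ρ x.1, x.2⟩ : G), interSnd N ρ x.1), fun n => by
        show _ * ρ (e n) = ρ (e (MulAut.conjNormal (⟨interFst N ρ x.1, x.2⟩ : G) n)) * _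
        rw [hcoe]
        exact x.1.2 (e n)⟩
      map_one' := rfl
      map_mul' := fun a b => rfl }
  let ψ : E →* ℂˣ := ψ₀.comp toE
  have hscal : ∀ z, interScalar N ρ z ∈ E := fun z => by
    rw [hE, Subgroup.mem_comap, interFst_scalar]
    exact G.one_mem
  have hincl : ∀ n, interIncl N ρ n ∈ E := fun n => by
    rw [hE, Subgroup.mem_comap, interFst_incl]
    exact hNG n.2
  have hψscal : ∀ z, ψ ⟨interScalar N ρ z, hscal z⟩ = z ^ m := fun z => by
    show ψ₀ (toE _) = z ^ m
    rw [show toE ⟨interScalar N ρ z, hscal z⟩ = interScalar N' ρ' z from rfl, hψs]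
    rfl
  have hψincl : ∀ n, ψ ⟨interIncl N ρ n, hincl n⟩ = 1 := fun n => by
    show ψ₀ (toE _) = 1
    obtain ⟨k, rfl⟩ := e.surjective n
    exact hψN k
  have hpowE : ∀ x : E, ∃ (z : ℂˣ) (n : N),
      ((x : F)) ^ m = interScalar N ρ z * interIncl N ρ n := by
    intro x
    have h1 : (interFst N ρ x.1) ^ m ∈ N :=
      N'.pow_index_mem (⟨interFst N ρ x.1, x.2⟩ : G)
    obtain ⟨z, hz⟩ := exists_scalar_of_interFst_eq (x.1 ^ m) (interIncl N ρ ⟨_, h1⟩)
      (by rw [map_pow, interFst_incl])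
    exact ⟨z, _, hz⟩
  set K₀ : Subgroup E := ((powMonoidHom m).comp ψ).ker with hK₀
  have hK₀mem : ∀ x : E, x ∈ K₀ ↔ ψ x ^ m = 1 := fun x => Iff.rfl
  set K : Subgroup F := K₀.map E.subtype with hK
  haveI hKn : K.Normal := by
    refine ⟨?_⟩
    rintro _ ⟨x, hx, rfl⟩ f
    refine ⟨MulAut.conjNormal f x, ?_, MulAut.conjNormal_apply f x⟩
    obtain ⟨z, n, hzn⟩ := hpowE x
    have hx' : ψ x ^ m = 1 := hx
    rw [SetLike.mem_coe, hK₀mem]
    have hxm : x ^ m = ⟨interScalar N ρ z, hscal z⟩ * ⟨interIncl N ρ n, hincl n⟩ :=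
      Subtype.ext (by simpa using hzn)
    have h1 : MulAut.conjNormal f (⟨interScalar N ρ z, hscal z⟩ : E) = ⟨interScalar N ρ z, hscal z⟩ :=
      Subtype.ext (by
        rw [MulAut.conjNormal_apply, ← (interScalar_commute N ρ z f).eq, mul_inv_cancel_right])
    have h2 : MulAut.conjNormal f (⟨interIncl N ρ n, hincl n⟩ : E)
        = ⟨interIncl N ρ (MulAut.conjNormal (interFst N ρ f) n), hincl _⟩ :=
      Subtype.ext (by rw [MulAut.conjNormal_apply, interIncl_conj])
    rw [← map_pow, ← map_pow, hxm, map_mul, h1, h2, map_mul, hψincl, mul_one, hψscal]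
    rw [← map_pow, hxm, map_mul, hψincl, mul_one, hψscal] at hx'
    exact hx'
  have hKE : K ≤ E := Subgroup.map_subtype_le _
  have hKscal : ∀ z, interScalar N ρ z ∈ K → z ^ (m * m) = 1 := by
    rintro z ⟨x, hx, hxz⟩
    have : x = ⟨interScalar N ρ z, hscal z⟩ := Subtype.ext hxz
    rw [this, SetLike.mem_coe, hK₀mem, hψscal, ← pow_mul] at hx
    exact hx
  have hKincl : ∀ n, interIncl N ρ n ∈ K := fun n =>
    ⟨⟨_, hincl n⟩, (by rw [SetLike.mem_coe, hK₀mem, hψincl, one_pow]), rfl⟩
  let ι : N →* K := (interIncl N ρ).codRestrict K hKincl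
  let π : K →* G := ((interFst N ρ).comp K.subtype).codRestrict G fun x => hKE x.2
  have hπi : π.comp ι = Subgroup.inclusion hNG := MonoidHom.ext fun n => Subtype.ext rfl
  have hπs : Function.Surjective π := by
    intro g
    obtain ⟨x₀, hx₀⟩ := interFst_surjective hinv (g : Γ)
    have hx₀E : x₀ ∈ E := by rw [hE, Subgroup.mem_comap, hx₀]; exact g.2
    obtain ⟨r, hr⟩ := IsAlgClosed.exists_pow_nat_eq (((ψ ⟨x₀, hx₀E⟩)⁻¹ : ℂˣ) : ℂ)
      (Nat.pos_of_ne_zero hm0)
    have hr0 : r ≠ 0 := by
      rintro rfl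
      rw [zero_pow hm0] at hr
      exact Units.ne_zero _ hr.symm
    refine ⟨⟨interScalar N ρ (Units.mk0 r hr0) * x₀,
      ⟨⟨_, hscal _⟩ * ⟨x₀, hx₀E⟩, ?_, rfl⟩⟩, Subtype.ext ?_⟩
    · rw [SetLike.mem_coe, hK₀mem, map_mul, hψscal,
        show Units.mk0 r hr0 ^ m = (ψ ⟨x₀, hx₀E⟩)⁻¹ from Units.ext (by simpa using hr),
        inv_mul_cancel, one_pow]
    · show interFst N ρ (interScalar N ρ (Units.mk0 r hr0) * x₀) = g
      rw [map_mul, interFst_scalar, one_mul, hx₀]
  choose sec hsec using hπs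
  have hker : ∀ a : K, π a = 1 → ∃ z : ℂˣ, (a : F) = interScalar N ρ z := fun a ha => by
    obtain ⟨z, hz⟩ := exists_scalar_of_interFst_eq (a : F) 1
      (by rw [map_one]; exact congrArg Subtype.val ha)
    exact ⟨z, by rw [hz, mul_one]⟩
  haveI : NeZero (m * m) := ⟨mul_ne_zero hm0 hm0⟩
  haveI : Finite K := by
    have hsc : ∀ x : K, ∃ z : rootsOfUnity (m * m) ℂ,
        (x : F) = interScalar N ρ (z : ℂˣ) * (sec (π x) : F) := fun x => by
      obtain ⟨z, hz⟩ := exists_scalar_of_interFst_eq (x : F) (sec (π x) : F)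
        (congrArg Subtype.val (hsec (π x))).symm
      refine ⟨⟨z, hKscal z ?_⟩, hz⟩
      rw [← mul_inv_eq_iff_eq_mul.2 hz]
      exact K.mul_mem x.2 (K.inv_mem (sec (π x)).2)
    choose z hz using hsc
    exact Finite.of_injective (fun x : K => (π x, z x)) fun a b hab => Subtype.ext (by
      obtain ⟨h1, h2⟩ := Prod.mk.inj hab
      rw [hz a, hz b, h1, h2])
  haveI : ι.range.Normal := by
    refine ⟨?_⟩
    rintro _ ⟨n, rfl⟩ x
    exact ⟨_, Subtype.ext (interIncl_conj N ρ (x : F) n).symm⟩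
  -- the action of `S`
  choose lift hlift using fun s : S => interFst_surjective hinv (s : Γ)
  let φK : S →* MulAut K := MonoidHom.mk' (fun s => MulAut.conjNormal (lift s)) fun s t => by
    obtain ⟨z, hz⟩ := exists_scalar_of_interFst_eq (lift (s * t)) (lift s * lift t)
      (by rw [map_mul, hlift, hlift, hlift, Subgroup.coe_mul])
    have h1 : (MulAut.conjNormal (interScalar N ρ z) : MulAut K) = 1 :=
      MulEquiv.ext fun k => Subtype.ext (by
        rw [MulAut.conjNormal_apply, (interScalar_commute N ρ z _).eq, mul_inv_cancel_right]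
        rfl)
    show MulAut.conjNormal (lift (s * t)) = MulAut.conjNormal (lift s) * MulAut.conjNormal (lift t)
    rw [hz, map_mul, map_mul, h1, one_mul]
  have hφK : ∀ s (x : K), ((φK s x : K) : F) = lift s * x * (lift s)⁻¹ :=
    fun s x => MulAut.conjNormal_apply _ _
  let τ : Representation ℂ K (Fin d → ℂ) :=
    (Units.coeHom _).comp ((interSnd N ρ).comp K.subtype)
  have hτι : ∀ n, τ (ι n) = ρ n := fun n => rfl
  have hτ : τ.IsIrreducible := by
    let f : Subrepresentation τ → Subrepresentation ρ := fun W =>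
      ⟨W.toSubmodule, fun n v hv => hτι n ▸ W.apply_mem_toSubmodule (ι n) hv⟩
    have hf : Function.Injective f := fun W W' h => Subrepresentation.toSubmodule_injective
      (congrArg (fun X : Subrepresentation ρ => X.toSubmodule) h)
    haveI : Nontrivial (Subrepresentation τ) := ⟨⊥, ⊤, fun he => bot_ne_top
      ((congrArg f he : f ⊥ = f ⊤) : (⊥ : Subrepresentation ρ) = ⊤)⟩
    exact ⟨fun W => (IsSimpleOrder.eq_bot_or_eq_top (f W)).imp (fun h => hf (h.trans rfl))
      fun h => hf (h.trans rfl)⟩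
  have hkerlam : ∀ a : π.ker, ∃ z : ℂˣ, ((a : K) : F) = interScalar N ρ z :=
    fun a => hker a a.2
  choose lamf hlamf using hkerlam
  have hsinj : Function.Injective (interScalar N ρ) := by
    intro a b hab
    have h1 := congrArg (fun x : F => LinearMap.trace ℂ _
      ((interSnd N ρ x : (Module.End ℂ (Fin d → ℂ))ˣ) : Module.End ℂ (Fin d → ℂ))) hab
    have hd : (d : ℂ) ≠ 0 := by
      have := CfsgLib.CharTheory.finrank_pos_of_isIrreducible ρ
      rw [Module.finrank_fin_fun] at this
      exact_mod_cast this.ne'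
    have h2 : ∀ z : ℂˣ, LinearMap.trace ℂ _ ((interSnd N ρ (interScalar N ρ z) :
        (Module.End ℂ (Fin d → ℂ))ˣ) : Module.End ℂ (Fin d → ℂ)) = (z : ℂ) * d := fun z => by
      show LinearMap.trace ℂ _ (algebraMap ℂ (Module.End ℂ (Fin d → ℂ)) (z : ℂ)) = _
      rw [Algebra.algebraMap_eq_smul_one, map_smul, LinearMap.trace_one, Module.finrank_fin_fun,
        smul_eq_mul]
    rw [h2, h2] at h1
    exact Units.ext (mul_right_cancel₀ hd h1)
  let lam : π.ker →* ℂˣ := MonoidHom.mk' lamf fun a b => hsinj (by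
    rw [← hlamf, map_mul, ← hlamf, ← hlamf]; rfl)
  have hcard : (Nat.card (K ⧸ ι.range)).Coprime (Nat.card S) := by
    refine Nat.coprime_of_dvd fun p hp hpK hpS => ?_
    haveI := Fact.mk hp
    obtain ⟨y, hy⟩ := exists_prime_orderOf_dvd_card' p hpK
    induction y using QuotientGroup.induction_on with
    | H x =>
      obtain ⟨z, n, hzn⟩ := hpowE ⟨x.1, hKE x.2⟩
      have hzK : interScalar N ρ z ∈ K := by
        rw [eq_mul_inv_of_mul_eq hzn.symm]
        exact K.mul_mem (K.pow_mem x.2 m) (K.inv_mem (hKincl n))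
      have hpow : ((x : K ⧸ ι.range)) ^ (m * (m * m)) = 1 := by
        rw [pow_mul, ← QuotientGroup.mk_pow,
          show x ^ m = (⟨_, hzK⟩ : K) * ι n from Subtype.ext hzn, QuotientGroup.mk_mul,
          (QuotientGroup.eq_one_iff (N := ι.range) (ι n)).2 ⟨n, rfl⟩, mul_one, ← QuotientGroup.mk_pow,
          show (⟨interScalar N ρ z, hzK⟩ : K) ^ (m * m) = 1 from Subtype.ext (by
            rw [SubmonoidClass.coe_pow, ← map_pow, hKscal z hzK, map_one]; rfl),
          QuotientGroup.mk_one]
      have hdvd := orderOf_dvd_of_pow_eq_one hpow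
      rw [hy] at hdvd
      have hpm : p ∣ m := (hp.dvd_mul.1 hdvd).elim id fun h => (hp.dvd_mul.1 h).elim id id
      exact hp.ne_one (Nat.eq_one_of_dvd_coprimes hcop hpm hpS)
  obtain ⟨χ, hχ, hmult⟩ := exists_invariant_above_of_cover hS
    (conjRes G S fun s _ g hg => hG.conj_mem g hg s) φK π (fun g => ⟨sec g, hsec g⟩)
    (fun s x => Subtype.ext (by
      show interFst N ρ ((φK s x : K) : F) = _
      rw [hφK, map_mul, map_mul, map_inv, hlift]
      rfl))
    ι (by rw [hπi]; exact Subgroup.inclusion_injective hNG)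
    (fun s y hy => by
      obtain ⟨n, rfl⟩ := hy
      exact ⟨_, Subtype.ext ((interIncl_conj N ρ (lift s) n).symm.trans (hφK s (ι n)).symm)⟩)
    (fun a ha => by
      obtain ⟨z, hz⟩ := hker a ha
      refine Subgroup.mem_center_iff.2 fun x => Subtype.ext ?_
      rw [Subgroup.coe_mul, Subgroup.coe_mul, hz, (interScalar_commute N ρ z x.1).eq])
    (Θ := τ.character) ⟨d, τ, hτ, rfl⟩
    (fun s x => by
      show LinearMap.trace ℂ _ (τ (φK s x)) = LinearMap.trace ℂ _ (τ x)
      have h : τ (φK s x) = ((interSnd N ρ (lift s) : (Module.End ℂ (Fin d → ℂ))ˣ) :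
          Module.End ℂ (Fin d → ℂ)) * τ x * ((interSnd N ρ (lift s))⁻¹ :
            (Module.End ℂ (Fin d → ℂ))ˣ) := by
        show ((interSnd N ρ ((φK s x : K) : F) : (Module.End ℂ (Fin d → ℂ))ˣ) :
          Module.End ℂ (Fin d → ℂ)) = _
        rw [hφK, map_mul, map_mul, map_inv, Units.val_mul, Units.val_mul]
        rfl
      rw [h, LinearMap.trace_conj])
    ⟨ρ.character, d, ρ, hρ, rfl⟩ (fun n => rfl) lam
    (fun a x => by
      show LinearMap.trace ℂ _ (τ ((a : K) * x)) = (lamf a : ℂ) * LinearMap.trace ℂ _ (τ x)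
      have h : τ (a : K) = (lamf a : ℂ) • (1 : Module.End ℂ (Fin d → ℂ)) := by
        show ((interSnd N ρ ((a : K) : F) : (Module.End ℂ (Fin d → ℂ))ˣ) :
          Module.End ℂ (Fin d → ℂ)) = _
        rw [hlamf a, ← Algebra.algebraMap_eq_smul_one]
        rfl
      rw [map_mul, h, smul_one_mul, map_smul, smul_eq_mul])
    hcard
  refine ⟨χ, hχ, ?_⟩
  rw [← hπi]
  exact hmult

end CfsgLib.Clifford
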