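import Mathlib

/-!
Minimal supplements of a normal subgroup: nilpotent intersection, and order divisible only by
primes of the index.
-/

set_option autoImplicit false
set_option linter.style.haveILetI false

namespace CfsgLib.Clifford

universe u

/-- A normal subgroup has a supplement of solvable intersection whose order involves only the
primes of the index. -/
theorem exists_supplement {Γ : Type u} [Group Γ] [Finite Γ] (G : Subgroup Γ) [hG : G.Normal] :
    ∃ S : Subgroup Γ, S ⊔ G = ⊤ ∧ Group.IsSolvable (G.subgroupOf S) ∧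
      ∀ p : ℕ, p.Prime → p ∣ Nat.card S → p ∣ G.index := by
  classical
  obtain ⟨S, hS⟩ : ∃ S, Minimal (fun S : Subgroup Γ => S ⊔ G = ⊤) S :=
    Set.Finite.exists_minimal (Set.toFinite _) ⟨⊤, top_sup_eq G⟩
  have hSG : S ⊔ G = ⊤ := hS.prop
  set D := G.subgroupOf S with hD
  -- a supplement of `D` inside `S` is everything
  have hmin : ∀ T : Subgroup S, T ⊔ D = ⊤ → T = ⊤ := by
    intro T hT
    have h1 : T.map S.subtype ⊔ G = ⊤ := by
      refine top_le_iff.1 (hSG.ge.trans (sup_le ?_ le_sup_right))
      intro x hx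
      have : (⟨x, hx⟩ : S) ∈ T ⊔ D := hT ▸ Subgroup.mem_top _
      have h2 : T ⊔ D ≤ ((T.map S.subtype) ⊔ G).comap S.subtype := sup_le
        (fun y hy => Subgroup.mem_sup_left ⟨y, hy, rfl⟩) (fun y hy => Subgroup.mem_sup_right hy)
      exact h2 this
    have h2 := hS.eq_of_ge h1 (Subgroup.map_subtype_le T)
    refine (Subgroup.eq_top_iff' T).2 fun x => ?_
    have hx : (x : Γ) ∈ T.map S.subtype := h2 ▸ x.2
    obtain ⟨y, hy, hyx⟩ := hx
    exact (Subtype.ext hyx : y = x) ▸ hy
  -- Sylow subgroups of `D` are normal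
  have hsyl : ∀ (p : ℕ) [Fact p.Prime] (Q : Sylow p D), ((Q : Subgroup D).map D.subtype).Normal :=
    fun p _ Q => Subgroup.normalizer_eq_top_iff.1 (hmin _ (Sylow.normalizer_sup_eq_top Q))
  refine ⟨S, hSG, ?_, ?_⟩
  · haveI : Group.IsNilpotent D := (Group.isNilpotent_of_finite_tfae.out 0 3).2 <| by
      intro p hp Q
      refine ⟨fun x hx g => ?_⟩
      obtain ⟨y, hy, hyx⟩ := (hsyl p Q).conj_mem x ⟨x, hx, rfl⟩ (g : S)
      exact (Subtype.ext hyx : y = g * x * g⁻¹) ▸ hy
    infer_instance
  · intro p hp hpS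
    by_contra hpG
    haveI := Fact.mk hp
    obtain ⟨Q⟩ := (Sylow.nonempty : Nonempty (Sylow p D))
    set P := (Q : Subgroup D).map D.subtype with hP
    haveI : P.Normal := hsyl p Q
    have hind : D.index ∣ G.index := Subgroup.relIndex_dvd_index_of_normal G S
    have hpD : ¬ p ∣ D.index := fun h => hpG (h.trans hind)
    have hPind : ¬ p ∣ P.index := by
      rw [hP, Subgroup.index_map_subtype]
      exact fun h => (hp.dvd_mul.1 h).elim Q.not_dvd_index hpD
    have hPp : IsPGroup p P := Q.2.map _
    obtain ⟨k, hk⟩ := IsPGroup.iff_card.1 hPp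
    have hcop : (Nat.card P).Coprime P.index := by
      rw [hk]
      exact Nat.Coprime.pow_left _ (hp.coprime_iff_not_dvd.2 hPind)
    obtain ⟨K, hK⟩ := Subgroup.exists_right_complement'_of_coprime hcop
    have hKtop : K = ⊤ := hmin K (top_le_iff.1 (by
      rw [← hK.sup_eq_top]
      exact sup_le ((Subgroup.map_subtype_le _).trans le_sup_right) le_sup_left))
    have hmul := hK.card_mul
    rw [hKtop, Subgroup.card_top] at hmul
    have hP1 : Nat.card P = 1 := Nat.eq_of_mul_eq_mul_right Nat.card_pos (by rw [hmul, one_mul])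
    refine hPind ?_
    rw [← P.card_mul_index, hP1, one_mul] at hpS
    exact hpS

end CfsgLib.Clifford
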